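import Cfsg.Agent.J3Line.Tests

set_option autoImplicit false
set_option Elab.async false

namespace Cfsg.Agent.J3Line

open Cfsg.Agent.SporB.J3

theorem block_64 : allB blockB 64 8 = true := by decide +kernel

theorem count_64 : cntB 32768 4096 = 376 := by decide +kernel

theorem block_72 : allB blockB 72 8 = true := by decide +kernel

theorem count_72 : cntB 36864 4096 = 360 := by decide +kernel

theorem block_80 : allB blockB 80 8 = true := by decide +kernel

theorem count_80 : cntB 40960 4096 = 364 := by decide +kernel

theorem block_88 : allB blockB 88 8 = true := by decide +kernel

theorem count_88 : cntB 45056 4096 = 352 := by decide +kernel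

theorem block_96 : allB blockB 96 8 = true := by decide +kernel

theorem count_96 : cntB 49152 4096 = 377 := by decide +kernel

theorem block_104 : allB blockB 104 8 = true := by decide +kernel

theorem count_104 : cntB 53248 4096 = 348 := by decide +kernel

theorem block_112 : allB blockB 112 8 = true := by decide +kernel

theorem count_112 : cntB 57344 4096 = 375 := by decide +kernel

theorem block_120 : allB blockB 120 8 = true := by decide +kernel

theorem count_120 : cntB 61440 4096 = 370 := by decide +kernel

end Cfsg.Agent.J3Line
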