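import Cfsg.Agent.J3Line.Tests

set_option autoImplicit false
set_option Elab.async false

namespace Cfsg.Agent.J3Line

open Cfsg.Agent.SporB.J3

theorem block_128 : allB blockB 128 8 = true := by decide +kernel

theorem count_128 : cntB 65536 4096 = 373 := by decide +kernel

theorem block_136 : allB blockB 136 8 = true := by decide +kernel

theorem count_136 : cntB 69632 4096 = 356 := by decide +kernel

theorem block_144 : allB blockB 144 8 = true := by decide +kernel

theorem count_144 : cntB 73728 4096 = 381 := by decide +kernel

theorem block_152 : allB blockB 152 8 = true := by decide +kernel

theorem count_152 : cntB 77824 4096 = 347 := by decide +kernel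

theorem block_160 : allB blockB 160 8 = true := by decide +kernel

theorem count_160 : cntB 81920 4096 = 370 := by decide +kernel

theorem block_168 : allB blockB 168 8 = true := by decide +kernel

theorem count_168 : cntB 86016 4096 = 354 := by decide +kernel

theorem block_176 : allB blockB 176 8 = true := by decide +kernel

theorem count_176 : cntB 90112 4096 = 368 := by decide +kernel

theorem block_184 : allB blockB 184 8 = true := by decide +kernel

theorem count_184 : cntB 94208 4096 = 373 := by decide +kernel

end Cfsg.Agent.J3Line
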