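import Cfsg.Agent.J3Line.Tests

set_option autoImplicit false
set_option Elab.async false

namespace Cfsg.Agent.J3Line

open Cfsg.Agent.SporB.J3

theorem block_192 : allB blockB 192 8 = true := by decide +kernel

theorem count_192 : cntB 98304 4096 = 383 := by decide +kernel

theorem block_200 : allB blockB 200 8 = true := by decide +kernel

theorem count_200 : cntB 102400 4096 = 352 := by decide +kernel

theorem block_208 : allB blockB 208 8 = true := by decide +kernel

theorem count_208 : cntB 106496 4096 = 351 := by decide +kernel

theorem block_216 : allB blockB 216 8 = true := by decide +kernel

theorem count_216 : cntB 110592 4096 = 364 := by decide +kernel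

theorem block_224 : allB blockB 224 8 = true := by decide +kernel

theorem count_224 : cntB 114688 4096 = 362 := by decide +kernel

theorem block_232 : allB blockB 232 8 = true := by decide +kernel

theorem count_232 : cntB 118784 4096 = 364 := by decide +kernel

theorem block_240 : allB blockB 240 8 = true := by decide +kernel

theorem count_240 : cntB 122880 4096 = 350 := by decide +kernel

theorem block_248 : allB blockB 248 8 = true := by decide +kernel

theorem count_248 : cntB 126976 4096 = 354 := by decide +kernel

end Cfsg.Agent.J3Line
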