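import Cfsg.Agent.J3Line.Tests

set_option autoImplicit false
set_option Elab.async false

namespace Cfsg.Agent.J3Line

open Cfsg.Agent.SporB.J3

theorem block_256 : allB blockB 256 8 = true := by decide +kernel

theorem count_256 : cntB 131072 4096 = 375 := by decide +kernel

theorem block_264 : allB blockB 264 8 = true := by decide +kernel

theorem count_264 : cntB 135168 4096 = 363 := by decide +kernel

theorem block_272 : allB blockB 272 8 = true := by decide +kernel

theorem count_272 : cntB 139264 4096 = 365 := by decide +kernel

theorem block_280 : allB blockB 280 8 = true := by decide +kernel

theorem count_280 : cntB 143360 4096 = 352 := by decide +kernel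

theorem block_288 : allB blockB 288 8 = true := by decide +kernel

theorem count_288 : cntB 147456 4096 = 382 := by decide +kernel

theorem block_296 : allB blockB 296 8 = true := by decide +kernel

theorem count_296 : cntB 151552 4096 = 345 := by decide +kernel

theorem block_304 : allB blockB 304 8 = true := by decide +kernel

theorem count_304 : cntB 155648 4096 = 370 := by decide +kernel

theorem block_312 : allB blockB 312 8 = true := by decide +kernel

theorem count_312 : cntB 159744 4096 = 370 := by decide +kernel

end Cfsg.Agent.J3Line
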