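import Cfsg.Agent.J3Line.Tests

set_option autoImplicit false
set_option Elab.async false

namespace Cfsg.Agent.J3Line

open Cfsg.Agent.SporB.J3

theorem block_320 : allB blockB 320 8 = true := by decide +kernel

theorem count_320 : cntB 163840 4096 = 378 := by decide +kernel

theorem block_328 : allB blockB 328 8 = true := by decide +kernel

theorem count_328 : cntB 167936 4096 = 348 := by decide +kernel

theorem block_336 : allB blockB 336 8 = true := by decide +kernel

theorem count_336 : cntB 172032 4096 = 362 := by decide +kernel

theorem block_344 : allB blockB 344 8 = true := by decide +kernel

theorem count_344 : cntB 176128 4096 = 364 := by decide +kernel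

theorem block_352 : allB blockB 352 8 = true := by decide +kernel

theorem count_352 : cntB 180224 4096 = 351 := by decide +kernel

theorem block_360 : allB blockB 360 8 = true := by decide +kernel

theorem count_360 : cntB 184320 4096 = 372 := by decide +kernel

theorem block_368 : allB blockB 368 8 = true := by decide +kernel

theorem count_368 : cntB 188416 4096 = 355 := by decide +kernel

theorem block_376 : allB blockB 376 8 = true := by decide +kernel

theorem count_376 : cntB 192512 4096 = 350 := by decide +kernel

end Cfsg.Agent.J3Line
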