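import Cfsg.Agent.J3Line.Tests

set_option autoImplicit false
set_option Elab.async false

namespace Cfsg.Agent.J3Line

open Cfsg.Agent.SporB.J3

theorem block_384 : allB blockB 384 8 = true := by decide +kernel

theorem count_384 : cntB 196608 4096 = 366 := by decide +kernel

theorem block_392 : allB blockB 392 8 = true := by decide +kernel

theorem count_392 : cntB 200704 4096 = 367 := by decide +kernel

theorem block_400 : allB blockB 400 8 = true := by decide +kernel

theorem count_400 : cntB 204800 4096 = 368 := by decide +kernel

theorem block_408 : allB blockB 408 8 = true := by decide +kernel

theorem count_408 : cntB 208896 4096 = 346 := by decide +kernel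

theorem block_416 : allB blockB 416 8 = true := by decide +kernel

theorem count_416 : cntB 212992 4096 = 373 := by decide +kernel

theorem block_424 : allB blockB 424 8 = true := by decide +kernel

theorem count_424 : cntB 217088 4096 = 351 := by decide +kernel

theorem block_432 : allB blockB 432 8 = true := by decide +kernel

theorem count_432 : cntB 221184 4096 = 339 := by decide +kernel

theorem block_440 : allB blockB 440 8 = true := by decide +kernel

theorem count_440 : cntB 225280 4096 = 370 := by decide +kernel

end Cfsg.Agent.J3Line
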