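import Cfsg.Agent.J3Line.Tests

set_option autoImplicit false
set_option Elab.async false

namespace Cfsg.Agent.J3Line

open Cfsg.Agent.SporB.J3

theorem block_448 : allB blockB 448 8 = true := by decide +kernel

theorem count_448 : cntB 229376 4096 = 355 := by decide +kernel

theorem block_456 : allB blockB 456 8 = true := by decide +kernel

theorem count_456 : cntB 233472 4096 = 370 := by decide +kernel

theorem block_464 : allB blockB 464 8 = true := by decide +kernel

theorem count_464 : cntB 237568 4096 = 377 := by decide +kernel

theorem block_472 : allB blockB 472 8 = true := by decide +kernel

theorem count_472 : cntB 241664 4096 = 354 := by decide +kernel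

theorem block_480 : allB blockB 480 8 = true := by decide +kernel

theorem count_480 : cntB 245760 4096 = 380 := by decide +kernel

theorem block_488 : allB blockB 488 8 = true := by decide +kernel

theorem count_488 : cntB 249856 4096 = 350 := by decide +kernel

theorem block_496 : allB blockB 496 8 = true := by decide +kernel

theorem count_496 : cntB 253952 4096 = 370 := by decide +kernel

theorem block_504 : allB blockB 504 8 = true := by decide +kernel

theorem count_504 : cntB 258048 4096 = 372 := by decide +kernel

end Cfsg.Agent.J3Line
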