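import Cfsg.Agent.J3Line.Check0
import Cfsg.Agent.J3Line.Check1
import Cfsg.Agent.J3Line.Check2
import Cfsg.Agent.J3Line.Check3
import Cfsg.Agent.J3Line.Check4
import Cfsg.Agent.J3Line.Check5
import Cfsg.Agent.J3Line.Check6
import Cfsg.Agent.J3Line.Check7

set_option autoImplicit false

/-! The table tests, collected. -/

namespace Cfsg.Agent.J3Line

open Cfsg.Agent.SporB.J3

theorem block_all {k : ℕ} (hk : k < 64) : allB blockB (8 * k) 8 = true := by
  interval_cases k
  · exact block_0
  · exact block_8
  · exact block_16
  · exact block_24
  · exact block_32
  · exact block_40
  · exact block_48
  · exact block_56
  · exact block_64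
  · exact block_72
  · exact block_80
  · exact block_88
  · exact block_96
  · exact block_104
  · exact block_112
  · exact block_120
  · exact block_128
  · exact block_136
  · exact block_144
  · exact block_152
  · exact block_160
  · exact block_168
  · exact block_176
  · exact block_184
  · exact block_192
  · exact block_200
  · exact block_208
  · exact block_216
  · exact block_224
  · exact block_232
  · exact block_240
  · exact block_248
  · exact block_256
  · exact block_264
  · exact block_272
  · exact block_280
  · exact block_288
  · exact block_296
  · exact block_304
  · exact block_312
  · exact block_320
  · exact block_328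
  · exact block_336
  · exact block_344
  · exact block_352
  · exact block_360
  · exact block_368
  · exact block_376
  · exact block_384
  · exact block_392
  · exact block_400
  · exact block_408
  · exact block_416
  · exact block_424
  · exact block_432
  · exact block_440
  · exact block_448
  · exact block_456
  · exact block_464
  · exact block_472
  · exact block_480
  · exact block_488
  · exact block_496
  · exact block_504

theorem pointB_of_lt {c : ℕ} (hc : c < 262144) : pointB c = true := by
  have hb : blockB (c / 512) = true :=
    allB_spec (block_all (k := c / 4096) (by omega)) (by omega) (by omega)
  exact allB_spec hb (by omega) (by omega)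

theorem cntB_add (lo n : ℕ) : ∀ m, cntB lo (n + m) = cntB lo n + cntB (lo + n) m := by
  induction n generalizing lo with
  | zero => intro m; simp [cntB]
  | succ n ih =>
    intro m
    rw [show n + 1 + m = (n + m) + 1 by omega, cntB, cntB, ih, show lo + (n + 1) = lo + 1 + n by omega]
    omega

/-- the counts of the blocks -/
def counts : List ℕ := [412, 358, 360, 365, 369, 360, 353, 345, 376, 360, 364, 352, 377, 348, 375, 370, 373, 356, 381, 347, 370, 354, 368, 373, 383, 352, 351, 364, 362, 364, 350, 354, 375, 363, 365, 352, 382, 345, 370, 370, 378, 348, 362, 364, 351, 372, 355, 350, 366, 367, 368, 346, 373, 351, 339, 370, 355, 370, 377, 354, 380, 350, 370, 372]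

attribute [local irreducible] cntB

theorem count_block {k : ℕ} (hk : k < 64) : cntB (4096 * k) 4096 = counts.getD k 0 := by
  interval_cases k
  · exact count_0
  · exact count_8
  · exact count_16
  · exact count_24
  · exact count_32
  · exact count_40
  · exact count_48
  · exact count_56
  · exact count_64
  · exact count_72
  · exact count_80
  · exact count_88
  · exact count_96
  · exact count_104
  · exact count_112
  · exact count_120
  · exact count_128
  · exact count_136
  · exact count_144
  · exact count_152
  · exact count_160
  · exact count_168
  · exact count_176
  · exact count_184
  · exact count_192
  · exact count_200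
  · exact count_208
  · exact count_216
  · exact count_224
  · exact count_232
  · exact count_240
  · exact count_248
  · exact count_256
  · exact count_264
  · exact count_272
  · exact count_280
  · exact count_288
  · exact count_296
  · exact count_304
  · exact count_312
  · exact count_320
  · exact count_328
  · exact count_336
  · exact count_344
  · exact count_352
  · exact count_360
  · exact count_368
  · exact count_376
  · exact count_384
  · exact count_392
  · exact count_400
  · exact count_408
  · exact count_416
  · exact count_424
  · exact count_432
  · exact count_440
  · exact count_448
  · exact count_456
  · exact count_464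
  · exact count_472
  · exact count_480
  · exact count_488
  · exact count_496
  · exact count_504

theorem count_prefix : ∀ k ≤ 64, cntB 0 (4096 * k) = ((List.range k).map fun i ↦ counts.getD i 0).sum := by
  intro k
  induction k with
  | zero =>
    intro _
    have h := cntB_add 0 0 0
    simp only [Nat.add_zero] at h
    simp only [Nat.mul_zero, List.range_zero, List.map_nil, List.sum_nil]
    omega
  | succ k ih =>
    intro hk
    rw [Nat.mul_succ, cntB_add 0 (4096 * k) 4096, Nat.zero_add, ih (by omega), count_block (by omega),
      List.range_succ, List.map_append, List.sum_append, List.map_singleton, List.sum_singleton]

theorem count_all : cntB 0 262144 = 23256 :=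
  (count_prefix 64 le_rfl).trans (by decide +kernel)

end Cfsg.Agent.J3Line
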