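import Cfsg.Agent.J3Line.Tests

set_option autoImplicit false
set_option Elab.async false

namespace Cfsg.Agent.J3Line

open Cfsg.Agent.SporB.J3

theorem block_0 : allB blockB 0 8 = true := by decide +kernel

theorem count_0 : cntB 0 4096 = 412 := by decide +kernel

theorem block_8 : allB blockB 8 8 = true := by decide +kernel

theorem count_8 : cntB 4096 4096 = 358 := by decide +kernel

theorem block_16 : allB blockB 16 8 = true := by decide +kernel

theorem count_16 : cntB 8192 4096 = 360 := by decide +kernel

theorem block_24 : allB blockB 24 8 = true := by decide +kernel

theorem count_24 : cntB 12288 4096 = 365 := by decide +kernel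

theorem block_32 : allB blockB 32 8 = true := by decide +kernel

theorem count_32 : cntB 16384 4096 = 369 := by decide +kernel

theorem block_40 : allB blockB 40 8 = true := by decide +kernel

theorem count_40 : cntB 20480 4096 = 360 := by decide +kernel

theorem block_48 : allB blockB 48 8 = true := by decide +kernel

theorem count_48 : cntB 24576 4096 = 353 := by decide +kernel

theorem block_56 : allB blockB 56 8 = true := by decide +kernel

theorem count_56 : cntB 28672 4096 = 345 := by decide +kernel

end Cfsg.Agent.J3Line
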