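import Cfsg.Agent.SporB.J3.Family
import Cfsg.Agent.J3Line.All

set_option autoImplicit false

/-! Lines of the nine dimensional space: the two orbits. -/

namespace Cfsg.Agent.J3Line

open Cfsg.Agent.SporB.J3
open scoped MatrixGroups Matrix

local notation "Z9" => ZMod 3 × ZMod 3

variable {F : Type*} [Field F] (w : F)

/-- decoding a code -/
def toV (c : ℕ) : Z9 → F := fun i =>
  bitF F (Nat.testBit c (ix i)) + bitF F (Nat.testBit c (9 + ix i)) * w

/-- the matrices of the tests -/
def genOf : ℕ → BM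
  | 0 => gen0
  | 1 => gen1
  | 2 => gen2
  | 3 => powB gen0 8
  | 4 => powB gen1 7
  | _ => gen2

/-- the columns are those of the matrix -/
def colsOk (k : ℕ) : Prop :=
  (colList k).length = 9 ∧ ∀ j : Z9, (colList k).getD (ix j) 0 < 262144 ∧ ∀ i : Z9,
    Nat.testBit ((colList k).getD (ix j) 0) (ix i) = Nat.testBit (genOf k).lo (9 * ix i + ix j) ∧
    Nat.testBit ((colList k).getD (ix j) 0) (9 + ix i) = Nat.testBit (genOf k).hi (9 * ix i + ix j)

noncomputable instance (k : ℕ) : Decidable (colsOk k) := by unfold colsOk; infer_instance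

theorem cols_ok : ∀ k < 6, colsOk k := by decide +kernel

theorem low_bit : ∀ u < 512, u ≠ 0 → ∃ m < 9, u ^^^ (u &&& (u - 1)) = 2 ^ m ∧
    Nat.testBit u m = true ∧ ∀ q < m, Nat.testBit u q = false := by decide +kernel

theorem par9_eq : ∀ u < 512, (∑ z : Z9, (Nat.testBit u (ix z)).toNat) % 2 = par9 u := by
  decide +kernel

theorem supPar_one : supPar 1 = 1 ∧ supPar 72 = 0 ∧ okN 1 = true := by decide +kernel

theorem wCode_lt {c : ℕ} (hc : c < 262144) : wCode c < 262144 := by
  have h1 : c >>> 9 < 512 := by rw [Nat.shiftRight_eq_div_pow]; omega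
  have h2 : (c &&& 511) ^^^ (c >>> 9) < 2 ^ 9 :=
    Nat.xor_lt_two_pow (Nat.lt_of_le_of_lt Nat.and_le_right (by norm_num)) h1
  show _ < 2 ^ 18
  refine Nat.or_lt_two_pow (by omega) ?_
  rw [Nat.shiftLeft_eq]
  omega

theorem mvFrom_lt : ∀ (l : List ℕ) (c j : ℕ), (∀ g ∈ l, g < 262144) → mvFrom l c j < 262144
  | [], _, _, _ => by simp [mvFrom]
  | g :: l, c, j, h => by
    have hg : g < 2 ^ 18 := h g (by simp)
    have hw : wCode g < 2 ^ 18 := wCode_lt hg
    refine Nat.xor_lt_two_pow (n := 18) (Nat.xor_lt_two_pow ?_ ?_)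
      (mvFrom_lt l c (j + 1) fun x hx => h x (by simp [hx]))
    · cases Nat.beq ((c >>> j) &&& 1) 1 <;> first | exact hg | exact Nat.two_pow_pos 18
    · cases Nat.beq ((c >>> (9 + j)) &&& 1) 1 <;> first | exact hw | exact Nat.two_pow_pos 18

theorem beq_bit (c j : ℕ) : Nat.beq ((c >>> j) &&& 1) 1 = Nat.testBit c j := by
  rw [Nat.testBit, Nat.and_comm 1, Nat.and_one_is_mod]
  rcases Nat.mod_two_eq_zero_or_one (c >>> j) with h | h <;> rw [h] <;> rfl

theorem toV_zero : toV w 0 = 0 := by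
  funext i; simp [toV, bitF]

section
variable [CharP F 2]

theorem toV_xor (a b : ℕ) : toV w (Nat.xor a b) = toV w a + toV w b := by
  funext i
  show toV w (a ^^^ b) i = toV w a i + toV w b i
  simp only [toV, Nat.testBit_xor, bitF_xor]
  ring

variable (hw : w ^ 2 + w + 1 = 0)

include hw

theorem toV_wCode {c : ℕ} (hc : c < 262144) : toV w (wCode c) = w • toV w c := by
  funext i
  have hi := ix_lt i
  have e1 : Nat.testBit (wCode c) (ix i) = Nat.testBit c (9 + ix i) := by
    simp [wCode, Nat.testBit_or, Nat.testBit_shiftRight, Nat.testBit_shiftLeft, hi]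
  have e2 : Nat.testBit (wCode c) (9 + ix i) =
      xor (Nat.testBit c (ix i)) (Nat.testBit c (9 + ix i)) := by
    have h18 : Nat.testBit c (9 + (9 + ix i)) = false :=
      Nat.testBit_lt_two_pow (lt_of_lt_of_le hc
        (show 2 ^ 18 ≤ 2 ^ (9 + (9 + ix i)) from Nat.pow_le_pow_right (by norm_num) (by omega)))
    have h511 : Nat.testBit 511 (ix i) = true := by
      rw [show (511 : ℕ) = 2 ^ 9 - 1 by norm_num, Nat.testBit_two_pow_sub_one]; simp [hi]
    simp [wCode, Nat.testBit_or, Nat.testBit_shiftRight, Nat.testBit_shiftLeft, h18, h511]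
  simp only [toV, e1, e2, bitF_xor, Pi.smul_apply, smul_eq_mul]
  linear_combination -(bitF F (Nat.testBit c (9 + ix i))) * w_sq hw

theorem toV_mvFrom : ∀ (l : List ℕ) (c j : ℕ), (∀ g ∈ l, g < 262144) →
    toV w (mvFrom l c j) = ∑ m ∈ Finset.range l.length,
      (bitF F (Nat.testBit c (j + m)) + bitF F (Nat.testBit c (9 + (j + m))) * w) • toV w (l.getD m 0)
  | [], c, j, _ => by simp [mvFrom, toV_zero]
  | g :: l, c, j, h => by
    rw [List.length_cons, Finset.sum_range_succ', mvFrom, toV_xor, toV_xor,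
      toV_mvFrom l c (j + 1) fun x hx => h x (by simp [hx]), add_comm]
    congr 1
    · refine Finset.sum_congr rfl fun m _ => ?_
      rw [List.getD_cons_succ, show j + 1 + m = j + (m + 1) by omega]
    · rw [List.getD_cons_zero, Nat.add_zero, beq_bit, beq_bit, add_smul, mul_smul,
        ← toV_wCode w hw (h g (by simp))]
      cases Nat.testBit c j <;> cases Nat.testBit c (9 + j) <;> simp [bitF, toV_zero]

theorem toV_mv {k : ℕ} (hk : k < 6) (c : ℕ) : toV w (mv k c) = toM w (genOf k) *ᵥ toV w c := by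
  obtain ⟨hlen, hcol⟩ := cols_ok k hk
  have hall : ∀ g ∈ colList k, g < 262144 := by
    intro g hg
    obtain ⟨m, hm, rfl⟩ := List.mem_iff_getElem.1 hg
    obtain ⟨j, hj⟩ := exists_ix m (by omega)
    have := (hcol j).1
    rwa [hj, List.getD_eq_getElem _ _ hm] at this
  rw [mv, toV_mvFrom w hw _ _ _ hall, hlen]
  funext i
  simp only [Finset.sum_apply, Pi.smul_apply, smul_eq_mul, Matrix.mulVec, dotProduct, Nat.zero_add]
  rw [Finset.sum_bij' (fun j _ => ix j) (fun m hm => (exists_ix m (Finset.mem_range.1 hm)).choose)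
    (fun j _ => Finset.mem_range.2 (ix_lt j)) (fun _ _ => Finset.mem_univ _)
    (fun j _ => ix_injective (exists_ix _ (ix_lt j)).choose_spec)
    (fun m hm => (exists_ix m (Finset.mem_range.1 hm)).choose_spec)]
  intro j _
  simp only [toM, Matrix.of_apply, toV, ((hcol j).2 i).1, ((hcol j).2 i).2]
  ring

theorem mv_lt {k : ℕ} (hk : k < 6) (c : ℕ) : mv k c < 262144 := by
  obtain ⟨hlen, hcol⟩ := cols_ok k hk
  refine mvFrom_lt _ _ _ fun g hg => ?_
  obtain ⟨m, hm, rfl⟩ := List.mem_iff_getElem.1 hg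
  obtain ⟨j, hj⟩ := exists_ix m (by omega)
  have := (hcol j).1
  rwa [hj, List.getD_eq_getElem _ _ hm] at this

theorem exists_nm {c : ℕ} (hc : c < 262144) : ∃ a : F, a ≠ 0 ∧ toV w (nm c) = a • toV w c := by
  have h0 := w_ne_zero hw
  unfold nm
  cases okN c
  · cases okN (wCode c)
    · refine ⟨w * w, mul_ne_zero h0 h0, ?_⟩
      show toV w (wCode (wCode c)) = _
      rw [toV_wCode w hw (wCode_lt hc), toV_wCode w hw hc, mul_smul]
    · exact ⟨w, h0, toV_wCode w hw hc⟩
  · exact ⟨1, one_ne_zero, (one_smul F _).symm⟩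

theorem toV_inj {a b : ℕ} (ha : a < 262144) (hb : b < 262144) (h : toV w a = toV w b) : a = b := by
  refine Nat.eq_of_testBit_eq fun n => ?_
  rcases Nat.lt_or_ge n 18 with hn | hn
  · rcases Nat.lt_or_ge n 9 with h9 | h9
    · obtain ⟨i, hi⟩ := exists_ix n h9
      exact hi ▸ (bitpair_inj hw (congrFun h i)).1
    · obtain ⟨i, hi⟩ := exists_ix (n - 9) (by omega)
      rw [show n = 9 + ix i by omega]
      exact (bitpair_inj hw (congrFun h i)).2
  · have hp : 2 ^ 18 ≤ 2 ^ n := Nat.pow_le_pow_right (by norm_num) hn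
    rw [Nat.testBit_lt_two_pow (lt_of_lt_of_le ha hp), Nat.testBit_lt_two_pow (lt_of_lt_of_le hb hp)]

end

/-- the first nonzero coordinate is one -/
def Normal (v : Z9 → F) : Prop := ∃ i, v i = 1 ∧ ∀ q, ix q < ix i → v q = 0

theorem normal_unique {u v : Z9 → F} {a : F} (hu : Normal u) (hv : Normal v) (ha : a ≠ 0)
    (h : u = a • v) : a = 1 := by
  obtain ⟨i, hi, hiz⟩ := hu
  obtain ⟨j, hj, hjz⟩ := hv
  rcases lt_trichotomy (ix i) (ix j) with hlt | heq | hlt
  · have := congrFun h i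
    simp [hi, hjz i hlt] at this
  · have := congrFun h i
    rw [Pi.smul_apply, hi, ix_injective heq, hj] at this
    simpa using this.symm
  · have := congrFun h j
    simp [hj, hiz j hlt] at this
    exact absurd this.symm ha

theorem exists_normal {v : Z9 → F} (hv : v ≠ 0) : ∃ a : F, a ≠ 0 ∧ Normal (a • v) := by
  classical
  have hne : (Finset.univ.filter fun i => v i ≠ 0).Nonempty :=
    (Function.ne_iff.1 hv).imp fun i hi => by simpa using hi
  obtain ⟨i, hi, hmin⟩ := Finset.exists_min_image _ ix hne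
  rw [Finset.mem_filter] at hi
  refine ⟨(v i)⁻¹, inv_ne_zero hi.2, i, inv_mul_cancel₀ hi.2, fun q hq => ?_⟩
  have : v q = 0 := by
    by_contra h
    exact absurd (hmin q (Finset.mem_filter.2 ⟨Finset.mem_univ _, h⟩)) (by omega)
  simp [this]

section
variable [CharP F 2] (hw : w ^ 2 + w + 1 = 0)
include hw

theorem okN_iff {c : ℕ} (hc : c < 262144) : okN c = true ↔ Normal (toV w c) := by
  set u := (c &&& 511) ||| (c >>> 9) with hu
  have hu512 : u < 2 ^ 9 :=
    Nat.or_lt_two_pow (Nat.lt_of_le_of_lt Nat.and_le_right (by norm_num))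
      (by rw [Nat.shiftRight_eq_div_pow]; omega)
  have hb : ∀ m < 9, Nat.testBit u m = (Nat.testBit c m || Nat.testBit c (9 + m)) := fun m hm => by
    have h511 : Nat.testBit 511 m = true := by
      rw [show (511 : ℕ) = 2 ^ 9 - 1 by norm_num, Nat.testBit_two_pow_sub_one]; simp [hm]
    simp [hu, Nat.testBit_or, Nat.testBit_shiftRight, h511]
  have hz : ∀ q : Z9, toV w c q = 0 ↔
      (Nat.testBit c (ix q) = false ∧ Nat.testBit c (9 + ix q) = false) := fun q => by
    constructor
    · intro h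
      exact bitpair_inj hw (c := false) (d := false) (by simpa [toV, bitF] using h)
    · rintro ⟨h1, h2⟩; simp [toV, bitF, h1, h2]
  have hone : ∀ q : Z9, toV w c q = 1 ↔
      (Nat.testBit c (ix q) = true ∧ Nat.testBit c (9 + ix q) = false) := fun q => by
    constructor
    · intro h
      exact bitpair_inj hw (c := true) (d := false) (by simpa [toV, bitF] using h)
    · rintro ⟨h1, h2⟩; simp [toV, bitF, h1, h2]
  by_cases hu0 : u = 0
  · constructor
    · intro h
      simp [okN, ← hu, hu0] at h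
    · rintro ⟨i, hi, -⟩
      have := (hb _ (ix_lt i))
      rw [hu0, ((hone i).1 hi).1] at this
      simp at this
  · obtain ⟨m, hm, hlow, hum, hbelow⟩ := low_bit u hu512 hu0
    obtain ⟨i, hi⟩ := exists_ix m hm
    have e : okN c = !Nat.testBit c (9 + m) := by
      simp only [okN, ← hu]
      rw [hlow, Nat.and_two_pow, Nat.testBit_shiftRight]
      have e0 : Nat.beq u 0 = false := Cfsg.Agent.SporB.J3.beq_false_of_ne hu0
      cases hx : Nat.testBit c (9 + m)
      · simp [e0]
      · have e1 : Nat.beq (1 * 2 ^ m) 0 = false :=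
          Cfsg.Agent.SporB.J3.beq_false_of_ne (by positivity)
        simp only [e0, Bool.toNat_true, e1, Bool.not_false, Bool.not_true, Bool.true_and]
    rw [e, Bool.not_eq_true']
    constructor
    · intro h
      refine ⟨i, (hone i).2 ?_, fun q hq => (hz q).2 ?_⟩
      · rw [hi]; rw [hb m hm, h, Bool.or_false] at hum; exact ⟨hum, h⟩
      · have := hbelow (ix q) (hi ▸ hq)
        rw [hb _ (ix_lt q), Bool.or_eq_false_iff] at this
        exact this
    · rintro ⟨j, hj, hjz⟩
      obtain ⟨j1, j2⟩ := (hone j).1 hj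
      rcases lt_trichotomy (ix j) m with hlt | heq | hlt
      · have := hbelow _ hlt
        rw [hb _ (ix_lt j), j1] at this
        simp at this
      · rwa [heq] at j2
      · have := (hz i).1 (hjz i (hi.symm ▸ hlt))
        rw [hi] at this
        exact this.2

theorem cubeSum {c : ℕ} (hc : c < 262144) :
    ∑ z, toV w c z ^ 3 = (supPar c : F) := by
  set u := (c &&& 511) ||| (c >>> 9) with hu
  have hu512 : u < 2 ^ 9 :=
    Nat.or_lt_two_pow (Nat.lt_of_le_of_lt Nat.and_le_right (by norm_num))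
      (by rw [Nat.shiftRight_eq_div_pow]; omega)
  have h1 : ∀ z : Z9, toV w c z ^ 3 = (((Nat.testBit u (ix z)).toNat : ℕ) : F) := fun z => by
    have h511 : Nat.testBit 511 (ix z) = true := by
      rw [show (511 : ℕ) = 2 ^ 9 - 1 by norm_num, Nat.testBit_two_pow_sub_one]; simp [ix_lt z]
    have : Nat.testBit u (ix z) = (Nat.testBit c (ix z) || Nat.testBit c (9 + ix z)) := by
      simp [hu, Nat.testBit_or, Nat.testBit_shiftRight, h511]
    rw [this, toV]
    cases Nat.testBit c (ix z) <;> cases Nat.testBit c (9 + ix z) <;>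
      simp only [bitF, cond_true, cond_false, zero_mul, one_mul, add_zero, zero_add, Bool.or_false,
        Bool.or_true, Bool.false_or, Bool.toNat_false, Bool.toNat_true, Nat.cast_zero, Nat.cast_one]
    · simp
    · exact w_cube hw
    · simp
    · rw [← w_sq hw, ← pow_mul, show 2 * 3 = 3 * 2 from rfl, pow_mul, w_cube hw, one_pow]
  rw [Finset.sum_congr rfl fun z _ => h1 z, ← Nat.cast_sum, supPar, ← hu, ← par9_eq u hu512]
  exact (CharP.cast_eq_mod F 2 _).trans rfl

theorem exists_code [Fintype F] (hF : Fintype.card F = 4) (v : Z9 → F) :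
    ∃ c < 262144, toV w c = v := by
  have hbij : Function.Bijective fun p : Bool × Bool => bitF F p.1 + bitF F p.2 * w := by
    rw [Fintype.bijective_iff_injective_and_card]
    refine ⟨fun p q h => ?_, by simp [hF]⟩
    obtain ⟨h1, h2⟩ := bitpair_inj hw h
    exact Prod.ext h1 h2
  choose p hp using fun i => hbij.2 (v i)
  let f : Fin 18 → Bool := fun n => if h : n.val < 9 then (p (exists_ix n.val h).choose).1
    else (p (exists_ix (n.val - 9) (by omega)).choose).2
  refine ⟨Nat.ofBits f, Nat.ofBits_lt_two_pow f, funext fun i => ?_⟩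
  have hi := ix_lt i
  have e1 : Nat.testBit (Nat.ofBits f) (ix i) = (p i).1 := by
    rw [Nat.testBit_ofBits_lt f _ (by omega)]
    simp only [f, hi, dif_pos]
    rw [ix_injective (exists_ix (ix i) hi).choose_spec]
  have e2 : Nat.testBit (Nat.ofBits f) (9 + ix i) = (p i).2 := by
    rw [Nat.testBit_ofBits_lt f _ (by omega)]
    simp only [f, show ¬9 + ix i < 9 by omega, dif_neg, not_false_eq_true]
    congr 2
    refine ix_injective ?_
    rw [(exists_ix (9 + ix i - 9) (by omega)).choose_spec]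
    omega
  rw [toV, e1, e2]
  exact hp i

end

/-- a line is moved to another one -/
def Img (v u : Z9 → F) : Prop :=
  ∃ g ∈ GS w, ∃ a : F, a ≠ 0 ∧ (g : Matrix Z9 Z9 F) *ᵥ v = a • u

theorem img_of_smul {v u : Z9 → F} {a : F} (ha : a ≠ 0) (h : v = a • u) : Img w v u :=
  ⟨1, one_mem _, a, ha, by rw [Units.val_one, Matrix.one_mulVec, h]⟩

theorem Img.symm {v u : Z9 → F} (h : Img w v u) : Img w u v := by
  obtain ⟨g, hg, a, ha, e⟩ := h
  refine ⟨g⁻¹, inv_mem hg, a⁻¹, inv_ne_zero ha, ?_⟩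
  have : u = a⁻¹ • (g : Matrix Z9 Z9 F) *ᵥ v := by rw [e, smul_smul, inv_mul_cancel₀ ha, one_smul]
  conv_lhs => rw [this]
  rw [Matrix.mulVec_smul, Matrix.mulVec_mulVec, Units.inv_mul, Matrix.one_mulVec]

theorem Img.trans {v u t : Z9 → F} (h : Img w v u) (h' : Img w u t) : Img w v t := by
  obtain ⟨g, hg, a, ha, e⟩ := h
  obtain ⟨g', hg', a', ha', e'⟩ := h'
  refine ⟨g' * g, mul_mem hg' hg, a * a', mul_ne_zero ha ha', ?_⟩
  rw [Units.val_mul, ← Matrix.mulVec_mulVec, e, Matrix.mulVec_smul, e', smul_smul]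

section
variable [CharP F 2] [Finite F] (hw : w ^ 2 + w + 1 = 0)
include hw

omit [Finite F] in
theorem genOf_mem {k : ℕ} (hk : k < 6) : InS w (GS w) (genOf k) := by
  obtain ⟨h0, h1, h2⟩ := gens_mem w hw
  have hp : ∀ (A : BM) n, InS w (GS w) A → InS w (GS w) (powB A n) := fun A n hA => by
    induction n with
    | zero => exact inS_one w
    | succ n ih => exact inS_mul w hw ih hA
  interval_cases k
  exacts [h0, h1, h2, hp _ _ h0, hp _ _ h1, h2]

omit [Finite F] in
theorem img_step {k c : ℕ} (hk : k < 6) : Img w (toV w c) (toV w (nm (mv k c))) := by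
  obtain ⟨g, hg, eg⟩ := genOf_mem w hw hk
  obtain ⟨a, ha, e⟩ := exists_nm w hw (mv_lt w hw hk c)
  refine ⟨g, hg, a⁻¹, inv_ne_zero ha, ?_⟩
  rw [e, smul_smul, inv_mul_cancel₀ ha, one_smul, toV_mv w hw hk, eg]

/-- the representative of an orbit -/
def base (p : ℕ) : ℕ := if p = 1 then 1 else 72

omit [Finite F] in
theorem descend : ∀ (n c : ℕ), c < 262144 → okN c = true → digit c ≠ 0 → (digit c - 1) / 4 = n →
    Img w (toV w (base (supPar c))) (toV w c) := by
  intro n
  induction n using Nat.strong_induction_on with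
  | _ n ih =>
    intro c hc hok hd hn
    have h := pointB_of_lt hc
    simp only [pointB, hok, cond_true] at h
    have hb : Nat.beq (digit c) 0 = false := Cfsg.Agent.SporB.J3.beq_false_of_ne hd
    rw [hb, cond_false, Bool.and_eq_true] at h
    have h1 := h.1
    simp only [downB, Bool.or_eq_true, Bool.and_eq_true] at h1
    rcases h1 with (h1 | h1) | ⟨⟨⟨⟨⟨hp0, hlt⟩, hk⟩, hokp⟩, hplt⟩, hpar⟩
    · rw [eq_of_beq' h1, supPar_one.1]
      exact img_of_smul w one_ne_zero (one_smul F _).symm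
    · rw [eq_of_beq' h1, supPar_one.2.1]
      exact img_of_smul w one_ne_zero (one_smul F _).symm
    · set p := nm (mv (3 + (digit c - 1) % 4) c) with hp
      have hp0' : digit p ≠ 0 := fun e => by simp [e] at hp0
      have := ih _ (hn ▸ lt_of_blt hlt) p (lt_of_blt hplt) hokp hp0' rfl
      rw [eq_of_beq' hpar] at this
      exact this.trans w (img_step w hw (by have := lt_of_blt hk; omega)).symm

omit [Finite F] in
/-- The lines of the odd orbit. -/
theorem odd_closed {g : GL Z9 F} {c : ℕ}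
    (hg : (g : Matrix Z9 Z9 F) = toM w gen0 ∨ (g : Matrix Z9 Z9 F) = toM w gen1 ∨
      (g : Matrix Z9 Z9 F) = toM w gen2)
    (hc : c < 262144 ∧ okN c = true ∧ supPar c = 1 ∧ digit c ≠ 0) :
    ∃ d, (d < 262144 ∧ okN d = true ∧ supPar d = 1 ∧ digit d ≠ 0) ∧ ∃ a : F, a ≠ 0 ∧
      (g : Matrix Z9 Z9 F) *ᵥ toV w c = a • toV w d := by
  obtain ⟨hlt, hok, hpar, hd⟩ := hc
  have h := pointB_of_lt hlt
  simp only [pointB, hok, cond_true, Cfsg.Agent.SporB.J3.beq_false_of_ne hd, cond_false, Bool.and_eq_true, hpar] at h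
  have h2 := h.2
  simp only [show Nat.beq 1 0 = false from rfl, Bool.false_or, Bool.or_eq_true, Bool.false_eq_true, false_or, Bool.and_eq_true] at h2
  have key : ∀ k < 3, imgB k c = true → (g : Matrix Z9 Z9 F) = toM w (genOf k) →
      ∃ d, (d < 262144 ∧ okN d = true ∧ supPar d = 1 ∧ digit d ≠ 0) ∧ ∃ a : F, a ≠ 0 ∧
        (g : Matrix Z9 Z9 F) *ᵥ toV w c = a • toV w d := by
    intro k hk hi he
    simp only [imgB, Bool.and_eq_true] at hi
    obtain ⟨⟨⟨i1, i2⟩, i3⟩, i4⟩ := hi
    obtain ⟨a, ha, e⟩ := exists_nm w hw (mv_lt w hw (show k < 6 by omega) c)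
    refine ⟨nm (mv k c), ⟨lt_of_blt i2, i1, eq_of_beq' i3, fun e => by simp [e] at i4⟩,
      a⁻¹, inv_ne_zero ha, ?_⟩
    rw [e, smul_smul, inv_mul_cancel₀ ha, one_smul, toV_mv w hw (by omega), he]
  rcases hg with hg | hg | hg
  · exact key 0 (by norm_num) h2.1.1 hg
  · exact key 1 (by norm_num) h2.1.2 hg
  · exact key 2 (by norm_num) h2.2 hg

theorem odd_orbit {g : GL Z9 F} (hg : g ∈ GS w) :
    ∀ c, (c < 262144 ∧ okN c = true ∧ supPar c = 1 ∧ digit c ≠ 0) →
    ∃ d, (d < 262144 ∧ okN d = true ∧ supPar d = 1 ∧ digit d ≠ 0) ∧ ∃ a : F, a ≠ 0 ∧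
      (g : Matrix Z9 Z9 F) *ᵥ toV w c = a • toV w d := by
  refine closure_induction_finite (P := fun g : GL Z9 F => ∀ c,
    (c < 262144 ∧ okN c = true ∧ supPar c = 1 ∧ digit c ≠ 0) →
    ∃ d, (d < 262144 ∧ okN d = true ∧ supPar d = 1 ∧ digit d ≠ 0) ∧ ∃ a : F, a ≠ 0 ∧
      (g : Matrix Z9 Z9 F) *ᵥ toV w c = a • toV w d) ?_ (fun g hg c hc => ?_) ?_ hg
  · exact fun c hc => ⟨c, hc, 1, one_ne_zero, by rw [Units.val_one, Matrix.one_mulVec, one_smul]⟩
  · exact odd_closed w hw hg hc
  · intro x y hx hy c hc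
    obtain ⟨d, hd, a, ha, e⟩ := hy c hc
    obtain ⟨d', hd', a', ha', e'⟩ := hx d hd
    exact ⟨d', hd', a * a', mul_ne_zero ha ha', by
      rw [Units.val_mul, ← Matrix.mulVec_mulVec, e, Matrix.mulVec_smul, e', smul_smul]⟩

end

theorem cnt_eq_card : ∀ n, cntB 0 n =
    ((Finset.range n).filter fun c => okN c = true ∧ supPar c = 1 ∧ digit c ≠ 0).card
  | 0 => rfl
  | n + 1 => by
    rw [cntB_add 0 n 1, cnt_eq_card n, Nat.zero_add, Finset.range_add_one, Finset.filter_insert]
    show _ + ((bif okN n && (Nat.beq (supPar n) 1 && !Nat.beq (digit n) 0) then 1 else 0) + 0) = _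
    have hb : (okN n && (Nat.beq (supPar n) 1 && !Nat.beq (digit n) 0)) = true ↔
        (okN n = true ∧ supPar n = 1 ∧ digit n ≠ 0) := by
      simp [Nat.beq_eq, ← Bool.not_eq_true]
    cases h : okN n && (Nat.beq (supPar n) 1 && !Nat.beq (digit n) 0)
    · rw [if_neg (fun h' => by rw [hb.2 h'] at h; exact Bool.noConfusion h)]; rfl
    · rw [if_pos (hb.1 h), Finset.card_insert_of_notMem (by simp)]; rfl

end Cfsg.Agent.J3Line
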