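import Cfsg.Agent.SporB.J3.Tests
import Cfsg.Agent.J3Line.LineData

set_option autoImplicit false

/-! Boolean tests for the orbit table. -/

namespace Cfsg.Agent.J3Line

open Cfsg.Agent.SporB.J3

/-- multiplication of a code by the cube root -/
def wCode (c : ℕ) : ℕ := (c >>> 9) ||| (((c &&& 511) ^^^ (c >>> 9)) <<< 9)

/-- image of a code under columns, from position `j` on -/
def mvFrom : List ℕ → ℕ → ℕ → ℕ
  | [], _, _ => 0
  | g :: l, c, j => Nat.xor (Nat.xor (bif Nat.beq ((c >>> j) &&& 1) 1 then g else 0)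
      (bif Nat.beq ((c >>> (9 + j)) &&& 1) 1 then wCode g else 0)) (mvFrom l c (j + 1))

/-- image of a code -/
noncomputable def mv (k c : ℕ) : ℕ := mvFrom (colList k) c 0

/-- the lowest nonzero entry is a one -/
def okN (c : ℕ) : Bool :=
  !Nat.beq ((c &&& 511) ||| (c >>> 9)) 0 &&
  Nat.beq ((c >>> 9) &&&
    (((c &&& 511) ||| (c >>> 9)) ^^^ (((c &&& 511) ||| (c >>> 9)) &&& (((c &&& 511) ||| (c >>> 9)) - 1)))) 0

/-- the normalisation exponent -/
def nmExp (c : ℕ) : ℕ := bif okN c then 0 else bif okN (wCode c) then 1 else 2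

/-- the normalised code -/
def nm (c : ℕ) : ℕ := bif okN c then c else bif okN (wCode c) then wCode c else wCode (wCode c)

/-- table entry -/
noncomputable def digit (c : ℕ) : ℕ := (lchunk (c >>> 9) >>> (8 * (c &&& 511))) &&& 255

/-- parity of nine bits -/
def par9 (u : ℕ) : ℕ :=
  ((u &&& 1) + ((u >>> 1) &&& 1) + ((u >>> 2) &&& 1) + ((u >>> 3) &&& 1) + ((u >>> 4) &&& 1) +
    ((u >>> 5) &&& 1) + ((u >>> 6) &&& 1) + ((u >>> 7) &&& 1) + ((u >>> 8) &&& 1)) % 2

/-- parity of the support -/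
def supPar (c : ℕ) : ℕ := par9 ((c &&& 511) ||| (c >>> 9))

/-- the edge to the parent -/
noncomputable def downB (c d : ℕ) : Bool :=
  Nat.beq c 1 || Nat.beq c 72 ||
    (!Nat.beq (digit (nm (mv (3 + (d - 1) % 4) c))) 0 &&
      Nat.blt ((digit (nm (mv (3 + (d - 1) % 4) c)) - 1) / 4) ((d - 1) / 4) &&
      Nat.blt ((d - 1) % 4) 3 &&
      okN (nm (mv (3 + (d - 1) % 4) c)) &&
      Nat.blt (nm (mv (3 + (d - 1) % 4) c)) 262144 &&
      Nat.beq (supPar (nm (mv (3 + (d - 1) % 4) c))) (supPar c))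

/-- an image stays in the odd orbit -/
noncomputable def imgB (k c : ℕ) : Bool :=
  okN (nm (mv k c)) && Nat.blt (nm (mv k c)) 262144 && Nat.beq (supPar (nm (mv k c))) 1 &&
    !Nat.beq (digit (nm (mv k c))) 0

/-- the test at a code -/
noncomputable def pointB (c : ℕ) : Bool :=
  bif okN c then
    bif Nat.beq (digit c) 0 then Nat.beq (supPar c) 1
    else downB c (digit c) && (Nat.beq (supPar c) 0 || (imgB 0 c && imgB 1 c && imgB 2 c))
  else true

/-- number of odd orbit points in a range -/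
noncomputable def cntB : ℕ → ℕ → ℕ
  | _, 0 => 0
  | lo, n + 1 => (bif okN lo && (Nat.beq (supPar lo) 1 && !Nat.beq (digit lo) 0) then 1 else 0) + cntB (lo + 1) n

/-- the test on one block -/
noncomputable def blockB (h : ℕ) : Bool := allB pointB (512 * h) 512

end Cfsg.Agent.J3Line
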